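import Cfsg.Agent.Mx.F
import Cfsg.Prelude.Def_CaseTheorems

/-! Maximal 2-local subgroups of the Monster: pure subgroups and the seven classes. -/

set_option autoImplicit false

namespace CF.Mx

open Cfsg Subgroup CF.Loc CF.Even CF.LX

variable {G : Type*} [Group G]

/-- the seven classes of `2`-subgroups -/
def Cl (z : G) : Fin 7 → Subgroup G → Prop :=
  ![fun T => Sing z T ∧ Nat.card T = 2, fun T => Sing z T ∧ Nat.card T = 4,
    fun T => Sing z T ∧ Nat.card T = 8, fun T => ∃ T₀, Sing z T₀ ∧ Nat.card T₀ = 16 ∧ T = Us z T₀,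
    fun T => Ark z T, fun T => Pure z T ∧ Nat.card T = 2, fun T => Pure z T ∧ Nat.card T = 4]

variable [Finite G] {z v x : G} {A A₀ E E₀ F H T : Subgroup G}

theorem exists_zp (c : Nat.card T = 2) (s : ∀ a ∈ T, a * a = 1) :
    ∃ a ∈ T, a ≠ 1 ∧ T = zpowers a := by
  obtain ⟨a, h, n⟩ := exists_not_mem (X := T) (Y := ⊥) (by rw [card_bot, c]; decide)
  exact ⟨a, h, n, (eq_of_le_of_card_le (zpowers_le.2 h) (by
    rw [c, Nat.card_zpowers, orderOf_eq_prime (p := 2) (by rw [sq, s a h]) n])).symm⟩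

theorem ne_bot_of {n : ℕ} (c : Nat.card T = n + 2) : T ≠ ⊥ := fun e => by
  rw [e, card_bot] at c; omega

theorem card_cases (h : IsPGroup 2 T) (n : T ≠ ⊥) :
    Nat.card T = 2 ∨ Nat.card T = 4 ∨ Nat.card T = 8 ∨ 8 < Nat.card T := by
  obtain ⟨k, e⟩ := h.exists_card_eq
  rw [e]
  rcases k with _ | _ | _ | _ | k
  exacts [absurd (card_eq_one.1 e) n, by simp, by simp, by simp, by
    have := Nat.one_le_two_pow (n := k); simp only [pow_succ]; omega]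

omit [Finite G] in
theorem Pure.sq (p : Pure z E) : ∀ a ∈ E, a * a = 1 := fun a h => (p a h).1

omit [Finite G] in
theorem Pure.mono (p : Pure z E) (l : F ≤ E) : Pure z F := fun a h => p a (l h)

namespace Mo
variable (m : Mo z A₀)
include m

theorem mem_ark (k : Ark z A) (hx : x ∈ A) (bx : IsConj z x) (v1 : v ∈ SS A x) (n : v ∉ QO x)
    (vv : v * v = 1) (b : ¬ IsConj z v) : v ∈ A := by
  have h := m.b0
  obtain ⟨a, ha, e⟩ := k.exists_SS hx v1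
  refine (mul_mem_cancel_right ha).1 ((k.cent_W h hx bx).le ⟨e, fun w hw => ?_⟩).1
  rw [← mul_assoc, conj_eq_iff.1 ((k.SS_cases h hx bx (W_le hw.1 hw.2) v1).resolve_right fun r =>
    b ((isConj_conj w).1 (r ▸ (m.gd' bx vv (k.SS_le v1 x hx).symm n).2.resolve_left b))),
    mul_assoc, mul_assoc, hw.2 a ha]

theorem pure_Q (p : Pure z E) (bx : IsConj z x) (l : E ≤ 𝐂₁(x))
    (c : Nat.card E ≤ 2 * Nat.card ↥(E ⊓ QO x)) : ∃ g, cj[g] E ≤ QO z := by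
  have h := m.b0
  suffices ∃ s, IsConj z s ∧ E ≤ QO s by
    obtain ⟨s, a, b⟩ := this
    obtain ⟨g, rfl⟩ := isConj_iff.1 a
    exact ⟨g⁻¹, le_cj_iff.1 (cj_QO g z ▸ b)⟩
  by_cases e : E ≤ QO x
  · exact ⟨x, bx, e⟩
  obtain ⟨t, t1, t2⟩ := SetLike.not_le_iff_exists.1 e
  have up : ∀ {X : Subgroup G}, t ∈ X → E ⊓ QO x ≤ X → E ≤ X := fun a b e he =>
    (em (e ∈ QO x)).elim (fun r => b ⟨he, r⟩) fun r => (mul_mem_cancel_right a).1
      (b (mul_mem_of_card inf_le_left c he t1 (fun q => r q.2) fun q => t2 q.2))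
  rcases m.tri2 bx (p.sq t t1) (mem_c1.1 (l t1)) t2 (R := ⊥) IsPGroup.of_bot (by simp) (by simp)
    with ⟨A, k, x1, t3⟩ | ⟨s, -, s2, s3, -, s5⟩
  · have t4 := m.mem_ark k x1 bx t3 t2 (p.sq t t1) (p t t1).2
    have l' : E ≤ A := up t4 fun e he => (mul_mem_cancel_right t4).1 (m.mem_ark k x1 bx
      (mul_mem (W_le he.2 (k.memK2 h x1 bx t3 t2 he.2 (comm_of_sq p.sq he.1 t1))) t3)
      (by rwa [(QO x).mul_mem_cancel_left he.2]) (p.sq _ (mul_mem he.1 t1)) (p _ (mul_mem he.1 t1)).2)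
    have c1 : Nat.card E ≤ 4 := not_lt.1 fun r => let ⟨s, a, b⟩ := k.ex_sing l' r; (p s a).2 b
    have c2 := k.card_perp l'
    obtain ⟨s, a, b⟩ := k.ex_sing (X := k.perp E) (fun _ r => r.1) (by nlinarith)
    exact ⟨s, b, fun e he => (k.memQ s a.1 b e (l' he)).2 (k.bb_comm a.1 (l' he) ▸ a.2 e he (l' he))⟩
  · exact ⟨s, s2, up s3 fun e he => s5 e he.2 (p.sq e he.1) (comm_of_sq p.sq he.1 t1)⟩

theorem pure_step (l₀ : E₀ ≤ QO z)
    (s : ∀ X ≤ 𝐂(E₀), IsPGroup 2 X → ∃ g ∈ 𝐂(E₀), cj[g] X ≤ 𝐂₁(z)) (p : Pure z E) (l : F ≤ E)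
    {g : G} (e : E₀ = cj[g] F) (c : Nat.card E ≤ 2 * Nat.card F) : ∃ g, cj[g] E ≤ QO z := by
  have l1 : E₀ ≤ cj[g] E := e ▸ cj_mono g l
  obtain ⟨r, a, b⟩ := s (cj[g] E) (fun a ha b hb => comm_of_sq (p.cj g).sq (l1 hb) ha)
    (pg_of_sq (p.cj g).sq)
  obtain ⟨u, d⟩ := m.pure_Q ((p.cj g).cj r) (IsConj.refl z) b (by
    have := card_le_card_of_le (le_inf (cj_eq_self (centralizer_le_normalizer _ a) ▸ cj_mono r l1) l₀)
    rw [e, card_cj] at this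
    rw [card_cj, card_cj]
    omega)
  exact ⟨u * (r * g), by rwa [cj_mul, cj_mul]⟩

theorem pure2 (p : Pure z E) (p' : Pure z F) (c : Nat.card E = 2) (c' : Nat.card F = 2) :
    ∃ g, F = cj[g] E := by
  obtain ⟨a, a1, a2, rfl⟩ := exists_zp c p.sq
  obtain ⟨b, b1, b2, rfl⟩ := exists_zp c' p'.sq
  obtain ⟨g, rfl⟩ := isConj_iff.1 (m.two a b (p a a1).1 (p' b b1).1 a2 b2 (p a a1).2 (p' b b1).2)
  exact ⟨g, (cj_zpowers g a).symm⟩

theorem pure4 (p : Pure z E) (p' : Pure z F) (c : Nat.card E = 4) (c' : Nat.card F = 4) :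
    ∃ g, F = cj[g] E := by
  have k : ∀ {E}, Pure z E → Nat.card E = 4 → ∃ g, cj[g] E ≤ QO z := fun {E} p c => by
    obtain ⟨E₀, a, b, d, e⟩ := m.a2
    obtain ⟨F, l, f⟩ := exists_sub (pg_of_sq p.sq) (n := 1) (by omega)
    obtain ⟨g, r⟩ := m.pure2 (p.mono l) b f d
    exact m.pure_step a e p l r (by omega)
  obtain ⟨a, ha⟩ := k p c
  obtain ⟨b, hb⟩ := k p' c'
  obtain ⟨g, e⟩ := m.p4 _ ha _ hb (p.cj a) (p'.cj b) ((card_cj _ _).trans c) ((card_cj _ _).trans c')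
  exact ⟨b⁻¹ * (g * a), by rw [cj_mul, cj_mul, ← e, cj_inv_cj]⟩

theorem pure8 (p : Pure z E) : Nat.card E ≤ 4 := not_lt.1 fun c => by
  obtain ⟨X, l, a⟩ := exists_sub (pg_of_sq p.sq) (n := 3) (by omega)
  have q := p.mono l
  obtain ⟨F, l', f⟩ := exists_sub (pg_of_sq q.sq) (n := 2) (by omega)
  obtain ⟨E₀, a₀, b, d, e⟩ := m.a4
  obtain ⟨g, r⟩ := m.pure4 (q.mono l') b f d
  obtain ⟨u, w⟩ := m.pure_step a₀ e q l' r (by omega)
  have := m.p8 _ w (q.cj u)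
  rw [card_cj] at this
  omega

theorem cl_two {i : Fin 7} (c : Cl z i T) : IsPGroup 2 T ∧ T ≠ ⊥ := by
  have h := m.b0
  fin_cases i
  · exact ⟨pg_of_sq (h.sing_sq c.1), ne_bot_of c.2⟩
  · exact ⟨pg_of_sq (h.sing_sq c.1), ne_bot_of c.2⟩
  · exact ⟨pg_of_sq (h.sing_sq c.1), ne_bot_of c.2⟩
  · obtain ⟨T₀, a, b, rfl⟩ := c
    obtain ⟨p, -, A, B, w⟩ := m.fa a b
    exact ⟨pg_of_sq fun a r => w.k1.sq a (mem_Us.1 r _ w.k1 w.l1), fun e => ne_bot_of b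
      (le_bot_iff.1 (e ▸ fun a r => mem_Us.2 fun _ _ l => l r))⟩
  · exact ⟨pg_of_sq c.sq, ne_bot_of c.card⟩
  · exact ⟨pg_of_sq c.1.sq, ne_bot_of c.2⟩
  · exact ⟨pg_of_sq c.1.sq, ne_bot_of c.2⟩

theorem cl_conj {i : Fin 7} (c : Cl z i E) (c' : Cl z i F) : ∃ g, F = cj[g] E := by
  have h := m.b0
  fin_cases i
  · obtain ⟨a, a1, a2, rfl⟩ := exists_zp c.2 (h.sing_sq c.1)
    obtain ⟨b, b1, b2, rfl⟩ := exists_zp c'.2 (h.sing_sq c'.1)
    obtain ⟨g, rfl⟩ := isConj_iff.1 ((c.1 a a1 a2).1.symm.trans (c'.1 b b1 b2).1)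
    exact ⟨g, (cj_zpowers g a).symm⟩
  · exact m.s4 _ _ c.1 c'.1 c.2 c'.2
  · exact m.s8 _ _ c.1 c'.1 c.2 c'.2
  · obtain ⟨T, a, b, rfl⟩ := c
    obtain ⟨T', a', b', rfl⟩ := c'
    obtain ⟨g, rfl⟩ := m.s16 _ _ a a' b b'
    exact ⟨g, (cj_Us z g T).symm⟩
  · obtain ⟨a, rfl⟩ := m.arkc c
    obtain ⟨b, rfl⟩ := m.arkc c'
    exact ⟨b * a⁻¹, by rw [cj_mul, cj_inv_cj]⟩
  · exact m.pure2 c.1 c'.1 c.2 c'.2
  · exact m.pure4 c.1 c'.1 c.2 c'.2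

theorem cls (hH : IsMaximalTwoLocal H) : ∃ i T, Cl z i T ∧ H ≤ 𝐍(T) := by
  have h := m.b0
  obtain ⟨⟨T₀, a1, a2, a3⟩, mx⟩ := hH
  have pR := isPGroup_pCoreOf 2 H
  have R1 : 𝐎[2](H) ≠ ⊥ := fun e => a2 (le_bot_iff.1 (e ▸ le_pCoreOf a1 (a3 ▸ le_normalizer) a3.le))
  obtain ⟨E, hE⟩ : ∃ E : Subgroup G, ∀ e, e ∈ E ↔ e ∈ 𝐎[2](H) ⊓ 𝐂(𝐎[2](H)) ∧ e * e = 1 :=
    ⟨sub1 (fun e => e ∈ 𝐎[2](H) ⊓ 𝐂(𝐎[2](H)) ∧ e * e = 1) (fun _ a => a.2) fun s t a b _ =>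
      ⟨mul_mem a.1 b.1, by rw [mul_assoc, ← mul_assoc t, ← b.1.2 s a.1.1, mul_assoc, b.2, mul_one,
        a.2]⟩, fun e => or_iff_right_of_imp fun r => by rw [r]; exact ⟨one_mem _, mul_one _⟩⟩
  have sE : ∀ e ∈ E, e * e = 1 := fun e r => ((hE e).1 r).2
  have E1 : E ≠ ⊥ := fun e => by
    obtain ⟨x, a, b⟩ := exists_orderOf_eq_of_isPGroup (pR.to_le inf_le_left) (center_ne_bot pR R1)
    exact ne_one_of_orderOf_eq b (mem_bot.1 (e ▸ (hE x).2 ⟨a, mul_self_of_invol b⟩))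
  have HE : H ≤ 𝐍(E) := fun g hg => mem_normalizer_of_conj_mem fun e r => (hE _).2
    ⟨conj_mem_of_mem_normalizer (le_normalizer_inf (le_normalizer_pCoreOf 2 H)
      (le_normalizer_centralizer (le_normalizer_pCoreOf 2 H)) hg) ((hE e).1 r).1,
      by simp [sE e r]⟩
  have CE : 𝐂(E) ≤ H := (centralizer_le_normalizer _).trans (mx _ ⟨E, pg_of_sq sE, E1, rfl⟩ HE).le
  have S : Sk z E 𝐎[2](H) := ⟨pR, sE, fun r hr e he => (((hE e).1 he).1.2 r hr).symm,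
    fun x hx bx s s1 s2 s3 => (hE s).2 ⟨⟨pCoreOf_le_pCoreOf_of_normal CE
      (le_normalizer_centralizer HE) (le_pCoreOf ((h.lq bx).isPGroup.to_le inf_le_left) inf_le_right
        (le_normalizer_inf (fun g hg => (h.lq bx).nor' (hg x hx).symm) le_normalizer)
        ⟨s1, fun e he => s3 e ((hE e).1 he).1.1⟩), s3⟩, s2⟩⟩
  by_cases b : ∃ x ∈ E, IsConj z x
  swap
  · have p : Pure z E := fun e he => ⟨sE e he, fun r => b ⟨e, he, r⟩⟩
    have := m.pure8 p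
    rcases card_cases (pg_of_sq sE) E1 with c | c | c | c
    exacts [⟨5, E, ⟨p, c⟩, HE⟩, ⟨6, E, ⟨p, c⟩, HE⟩, by omega, by omega]
  obtain ⟨x, x1, x2⟩ := Set.exists_max_image {x | x ∈ E ∧ IsConj z x}
    (fun x => Nat.card ↥(E ⊓ QO x)) (Set.toFinite _) b
  have X : Mx z E x := ⟨x1.1, x1.2, fun s a b => x2 s ⟨a, b⟩⟩
  by_cases ad : ∀ s, Mx z E s → ∀ t, Mx z E t → t ∈ QO s
  · have n := h.sing_closure (S := {s | Mx z E s}) (fun s a => a.b) ad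
    have HT : H ≤ 𝐍(closure {s | Mx z E s}) := fun g hg => mem_normalizer_of_cj_le (by
      rw [MonoidHom.map_closure]
      refine closure_mono ?_
      rintro _ ⟨s, a, rfl⟩
      refine ⟨conj_mem_of_mem_normalizer (HE hg) a.mem, (isConj_conj g).2 a.b, fun t p q => ?_⟩
      have := card_cj g (E ⊓ QO s)
      rw [cj_inf, cj_QO, cj_eq_self (HE hg)] at this
      exact (a.le t p q).trans this.ge)
    rcases card_cases (pg_of_sq (h.sing_sq n)) fun e => h.ne X.b (mem_bot.1 (e ▸ subset_closure X))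
      with c | c | c | c
    exacts [⟨0, _, ⟨n, c⟩, HT⟩, ⟨1, _, ⟨n, c⟩, HT⟩, ⟨2, _, ⟨n, c⟩, HT⟩, (m.sing_cls n c).elim
      (fun ⟨T, a, b, d⟩ => ⟨3, _, ⟨T, a, b, rfl⟩, HT.trans d⟩) fun ⟨A, k, d⟩ => ⟨4, A, k, HT.trans d⟩]
  push Not at ad
  obtain ⟨x, X, y, Y, n⟩ := ad
  obtain ⟨A, k, l⟩ := m.core S X Y n
  refine ⟨4, A, k, fun g hg => ?_⟩
  have l' : E ≤ cj[g] A := cj_eq_self (HE hg) ▸ cj_mono g l
  exact cj_eq_self_iff.1 ((k.cj g).can1 h k (l' X.mem) (l X.mem) X.b (l' Y.mem) (l Y.mem) n)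

theorem main : ∃ S : Finset (Subgroup G), S.card = 7 ∧ (∀ H ∈ S, IsTwoLocal H) ∧
    ∀ H, IsMaximalTwoLocal H → ∃ H₀ ∈ S, ∃ g : G, H = H₀.map (MulAut.conj g).toMonoidHom := by
  classical
  have h := m.b0
  let r : Fin 7 → Subgroup G := fun i => if c : ∃ T, Cl z i T then c.choose else A₀
  have r1 : ∀ i, IsTwoLocal 𝐍(r i) := fun i => by
    by_cases c : ∃ T, Cl z i T
    · exact ⟨_, (m.cl_two c.choose_spec).1, (m.cl_two c.choose_spec).2, by simp only [r, dif_pos c]⟩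
    · exact ⟨_, pg_of_sq m.ark.sq, ne_bot_of m.ark.card, by simp only [r, dif_neg c]⟩
  let B := {a | a ∈ A₀ ∧ IsConj z a}.toFinite.toFinset
  have b1 : (B.image fun x => 𝐍(QO x)).card = 527 := by
    rw [Finset.card_image_of_injOn, ← m.ark.cnt, Set.ncard_eq_toFinset_card]
    intro x a y b e
    have a := h.lq ((Set.Finite.mem_toFinset _).1 a).2
    have b := h.lq ((Set.Finite.mem_toFinset _).1 b).2
    simp only [a.norm_eq, b.norm_eq] at e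
    exact b.eq_of (show QO x = QO y by rw [QO, e, QO] ▸ a.toEX)
  obtain ⟨S, s1, s2, s3⟩ := Finset.exists_subsuperset_card_eq (n := 7) (Finset.subset_union_left
    (s₁ := Finset.univ.image fun i => 𝐍(r i)) (s₂ := B.image fun x => 𝐍(QO x)))
    (Finset.card_image_le.trans (by simp))
    (((by decide : 7 ≤ 527).trans b1.ge).trans (Finset.card_le_card Finset.subset_union_right))
  refine ⟨S, s3, fun H a => ?_, fun H a => ?_⟩
  · rcases Finset.mem_union.1 (s2 a) with b | b <;> obtain ⟨i, c, rfl⟩ := Finset.mem_image.1 b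
    · exact r1 i
    · have a := h.lq ((Set.Finite.mem_toFinset _).1 c).2
      exact ⟨_, a.isPGroup, fun e => a.z_ne (mem_bot.1 (e ▸ a.mem)), rfl⟩
  · obtain ⟨i, T, c, l⟩ := m.cls a
    have c' : ∃ T, Cl z i T := ⟨T, c⟩
    obtain ⟨g, e⟩ := m.cl_conj c'.choose_spec c
    refine ⟨_, s1 (Finset.mem_image_of_mem _ (Finset.mem_univ i)), g, ?_⟩
    rw [← a.2 _ ⟨T, (m.cl_two c).1, (m.cl_two c).2, rfl⟩ l, cj_normalizer, e]
    simp only [r, dif_pos c']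

end Mo

end CF.Mx
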