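import Cfsg.Agent.Mon.Loc4
import Cfsg.Agent.Mon.RkL

/-! Maximal 2-local subgroups of the Monster: diagonal labels, tetrads and sextets. -/

set_option autoImplicit false
set_option maxRecDepth 100000

namespace CF.Mx.M2

open Cfsg Subgroup CF.Leech CF.Mon CF.Mon.G CF.Mon.L CF.Mon.Lab CF.Known.Mon CF.Comp Function
open scoped Pointwise symmDiff

/-- the label of four times an even set -/
noncomputable def fl (t : Finset Pt) : Lab := cls (f4 t)

/-- truncation of coordinates -/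
def tr (n : ℕ) (v : Fin 5 → ZMod 2) : Fin 5 → ZMod 2 := fun i => if i.1 < n then v i else 0

/-- the standard singular subgroups -/
def RS (n : ℕ) : Subgroup Lab := rng (fun v => e5 (tr n v)) fun u v => by
  rw [← e5_add]
  congr 1
  funext i
  simp only [tr, Pi.add_apply]
  split_ifs <;> simp

theorem card_RS : ∀ n ≤ 4, Nat.card (RS n) = 2 ^ n := fun n hn => by
  have : Nat.card (RS n) = (Finset.univ.image (tr n)).card := by
    rw [← Set.ncard_coe_finset, ← Set.ncard_image_of_injective _ (LeftInverse.injective d5_e5),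
      Finset.coe_image, Finset.coe_univ, Set.image_univ, ← Set.range_comp]
    rfl
  rw [this]
  clear this
  revert n
  decide +kernel

theorem mem_RS {n : ℕ} {p : Lab} : p ∈ RS n ↔ e5 (tr n (d5 p)) = p :=
  ⟨by rintro ⟨v, rfl⟩; rw [d5_e5]; congr 1; funext i; simp only [tr]; split_ifs <;> rfl,
    fun h => ⟨_, h⟩⟩

/-- the generators -/
def gn : Fin 5 → Lab := ![xc, Z 11, tL 0, tL 1, tL 2]

theorem RS_le {n : ℕ} {K : Subgroup Lab} : RS n ≤ K ↔ ∀ i : Fin 5, i.1 < n → gn i ∈ K := by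
  have e : ∀ i, e5 (Pi.single i 1) = gn i := by decide +kernel
  have f : ∀ i : Fin 5, tr n (Pi.single i 1) = if i.1 < n then Pi.single i 1 else 0 := fun i => by
    funext j
    by_cases k : j = i <;> split_ifs <;> simp [tr, *]
  refine ⟨fun h i hi => h ⟨Pi.single i 1, by simp only [f, if_pos hi, e]⟩, fun h => ?_⟩
  rintro _ ⟨v, rfl⟩
  refine ind2 (P := fun v => e5 (tr n v) ∈ K) ?_ (fun u v a b => ?_) (fun i => ?_) v
  · rw [show tr n 0 = 0 by funext i; simp [tr], e5_single.1]; exact K.one_mem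
  · rw [show tr n (u + v) = tr n u + tr n v by
      funext i; simp only [tr, Pi.add_apply]; split_ifs <;> simp, e5_add]
    exact K.mul_mem a b
  · rw [f]
    split_ifs with k
    exacts [e i ▸ h i k, e5_single.1 ▸ K.one_mem]

theorem RS2_le {K : Subgroup Lab} : RS 2 ≤ K ↔ xc ∈ K ∧ Z 11 ∈ K :=
  RS_le.trans (by simp [Fin.forall_fin_succ, gn])

theorem RS3_le {K : Subgroup Lab} : RS 3 ≤ K ↔ RS 2 ≤ K ∧ tL 0 ∈ K :=
  RS_le.trans (by simp [Fin.forall_fin_succ, gn, RS2_le, and_assoc])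

theorem RS4_le {K : Subgroup Lab} : RS 4 ≤ K ↔ RS 3 ≤ K ∧ tL 1 ∈ K :=
  RS_le.trans (by simp [Fin.forall_fin_succ, gn, RS3_le, RS2_le, and_assoc])

theorem RS5_le {K : Subgroup Lab} : RS 5 ≤ K ↔ RS 4 ≤ K ∧ tL 2 ∈ K :=
  RS_le.trans (by simp [Fin.forall_fin_succ, gn, RS4_le, RS3_le, RS2_le, and_assoc])

variable {K : Subgroup Lab} {s t o : Finset Pt} {p : Lab}

theorem lam_Z : lam (Z 11) = w8 := by rw [← cls_e8 (pt 11), lam_cls, red_e8']

theorem mem_iff (l : RS 2 ≤ K) {x y : LL} (h : red x = red y ∨ red x = red y + w8) :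
    cls x ∈ K ↔ cls y ∈ K := by
  rw [← lam_Z, ← lam_cls, ← lam_cls, ← lam_mul, lam_eq_iff, lam_eq_iff] at h
  have k : ∀ {p q}, p ≈ₗ q → (p ∈ K ↔ q ∈ K) := fun e =>
    ⟨mem_of_eqv (RS2_le.1 l).1 e.symm, mem_of_eqv (RS2_le.1 l).1 e⟩
  exact h.elim k fun h => (k h).trans (K.mul_mem_cancel_right (RS2_le.1 l).2)

theorem even_of (h : s ∆ t ∈ CS) (e : Even s.card) : Even t.card := by
  have := card_symmDiff_add s t
  have := four_dvd_card h
  rw [even_iff_two_dvd] at e ⊢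
  omega

theorem near {x : LL} (a : ∀ i, (8 : ℤ) ∣ (x : V) i - 4 * ind s i) (h : s ∆ t ∈ CS) :
    Even t.card ∧ (red x = red (f4 t) ∨ red x = red (f4 t) + w8) := by
  have b : (8 : ℤ) ∣ ∑ i, (x : V) i := Rk.Ev.sum (c := ∅) fun i => by
    have := a i
    rw [show ind ∅ i = 0 by simp [ind]]
    omega
  have c := Finset.dvd_sum fun i (_ : i ∈ Finset.univ) => a i
  rw [Finset.sum_sub_distrib, ← Finset.mul_sum, sum_ind] at c
  have e := even_of h (even_iff_two_dvd.2 (by omega))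
  refine ⟨e, Rk.red_cases (fun i => ?_) h ?_⟩
  · have := a i
    have := two_ind_symmDiff s t i
    rw [f4_apply e]
    omega
  · obtain ⟨k, m⟩ := e
    simp only [Finset.sum_sub_distrib, f4_apply ⟨k, m⟩, ← Finset.mul_sum, sum_ind, m]
    omega

theorem fl_iff (l : RS 2 ≤ K) (e : Even s.card) (h : s ∆ t ∈ CS) : fl s ∈ K ↔ fl t ∈ K :=
  mem_iff l (near (fun i => by rw [f4_apply e, sub_self]; exact dvd_zero _) h).2

theorem diag (h : p.a = 0) : ∃ t : Finset Pt, t.card ≤ 4 ∧ Even t.card ∧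
    ∀ K : Subgroup Lab, RS 2 ≤ K → (p ∈ K ↔ fl t ∈ K) := by
  let R : Subgroup Lab :=
    { carrier := {p | ∃ x : LL, (∀ i, (4 : ℤ) ∣ (x : V) i) ∧ p ≈ₗ cls x}
      one_mem' := ⟨0, by simp, cls_zero ▸ Eqv.refl _⟩
      mul_mem' := fun ⟨x, a, b⟩ ⟨y, c, d⟩ =>
        ⟨x + y, fun i => dvd_add (a i) (c i), (b.mul d).trans (cls_add x y).symm⟩
      inv_mem' := fun ⟨x, a, b⟩ => ⟨x, a, (inv_eqv _).trans b⟩ }
  obtain ⟨x, a, b⟩ := mem_of_Z (R := R) ⟨0, by simp, cls_zero ▸ ⟨rfl, rfl⟩⟩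
    (fun k => ⟨_, four_wV k, cls_wV k ▸ Eqv.refl _⟩) h
  obtain ⟨t, c, d⟩ := exists_small (Finset.univ.filter fun i => ¬ (8 : ℤ) ∣ (x : V) i)
  obtain ⟨e, f⟩ := near (x := x) (fun i => by
    have := a i
    simp only [ind, Finset.mem_filter, Finset.mem_univ, true_and]
    split_ifs <;> omega) d
  exact ⟨t, c, e, fun K l => Iff.trans ⟨mem_of_eqv (RS2_le.1 l).1 b.symm,
    mem_of_eqv (RS2_le.1 l).1 b⟩ (mem_iff l f)⟩

theorem nm_f4 (e : Even t.card) : nm (f4 t) = 16 * t.card := by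
  simp only [nm, sqNorm, f4_apply e, ← sum_ind, Finset.mul_sum]
  exact Finset.sum_congr rfl fun i _ => by rcases ind_cases t i with k | k <;> simp [k.2]

theorem fl_empty : fl ∅ = 1 := by
  rw [fl, nm_eq_zero.1 (nm_f4 (t := ∅) (by simp)), cls_zero]

theorem bf_fl (e : Even t.card) (ho : o ∈ CS) : bf (fl t) (cls (tw ho)) = 0 ↔ 2 ∣ (o ∩ t).card := by
  rw [fl, bf_cls, d8_eq_zero, show dt (f4 t) (tw ho) = 8 * (o ∩ t).card by
    simp only [dt, dotInt, f4_apply e, tw_apply, ← sum_ind, Finset.mul_sum, ← ind_mul]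
    exact Finset.sum_congr rfl fun i _ => by ring]
  omega

theorem fl_R9 (e : Even t.card) (h : t ⊆ o1) : fl t ∈ R9 := by
  obtain ⟨k, m⟩ := e
  have : f4 t = ∑ i ∈ t, m4 i (oP 2) + k • e8 (oP 2) := LL.ext fun j => by
    rw [f4_apply ⟨k, m⟩, AddSubgroup.coe_add, AddSubmonoidClass.coe_finsetSum, AddSubgroup.coe_nsmul,
      Pi.add_apply, Finset.sum_apply, Pi.smul_apply]
    simp only [m4_apply, e8_apply, Finset.sum_sub_distrib, Finset.sum_ite_eq, Finset.sum_const, m,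
      ind, nsmul_eq_mul]
    split_ifs <;> push_cast <;> ring
  rw [fl, this]
  refine (pre R9 xc_R9).add_mem (sum_mem fun i hi => ?_) (nsmul_mem ?_ k)
  · obtain ⟨j, rfl⟩ := mem_o1.1 (h hi)
    exact show cls _ ∈ R9 from cls_m4_oP j ▸ e9_mem _
  · exact show cls _ ∈ R9 from cls_e8 _ ▸ Z11_R9

theorem lift (σ : M24) : ∃ γ : Gt, γ • Z 11 = Z 11 ∧ (∀ t, Even t.card → γ • fl t = fl (σ.1 • t)) ∧
    γ • X 0 ≈ₗ cls (tw (smul_mem_CS σ.2 o1_CS)) := by
  obtain ⟨γ, a, e⟩ := exists_C0 σ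
  refine ⟨γ, mem_Np.1 (C0_le_Np a), fun t k => ?_, ?_⟩
  · rw [fl, C0_smul_cls a (four_f4 k), e, perm_f4 σ k, fl]
  · rw [← cls_uV, uV_zero, ← perm_tw, ← e]
    exact smul_cls _ _

theorem tet (hs : s.card = 4) (ht : t.card = 4) : ∃ σ : M24, σ.1 • s = t := by
  obtain ⟨g, hg, e⟩ := Mat.M24_multi (show 4 ≤ 5 by omega) _ _
    (Subtype.val_injective.comp (s.equivFinOfCardEq hs).symm.injective)
    (Subtype.val_injective.comp (t.equivFinOfCardEq ht).symm.injective)
  refine ⟨⟨g, hg⟩, Finset.eq_of_subset_of_card_le (fun x hx => ?_) (by rw [card_smul, hs, ht])⟩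
  obtain ⟨y, hy, rfl⟩ := Finset.mem_smul_finset.1 hx
  have := e (s.equivFinOfCardEq hs ⟨y, hy⟩)
  simp only [comp_apply, Equiv.symm_apply_apply] at this
  exact (show g • y = _ from this) ▸ Subtype.property _

/-- search along the powers of a permutation -/
noncomputable def sr (g : ℕ) (P : ℕ → Bool) (n : ℕ) : ℕ → Bool :=
  Nat.rec (motive := fun _ => ℕ → Bool) (fun _ => false) (fun _ ih m =>
    Bool.rec (force (img (ap g) m) ih) true (P m)) n

/-- pairs of sextets in standard position -/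
def St (t : Finset Pt) : Prop := ∃ σ ∈ M24, (σ • TT 0) ∆ TT 0 ∈ CS ∧ (σ • t) ∆ TT 1 ∈ CS

theorem sr_spec {g : ℕ} (a : isM24 g = true ∧ isCode (Nat.xor (img (ap g) 15) 15) = true)
    {P : ℕ → Bool} (b : ∀ m, P m = true → St (ofMask m)) (n m : ℕ) (h : sr g P n m = true) :
    St (ofMask m) := by
  induction n generalizing m with
  | zero => exact absurd h (by simp [sr])
  | succ n ih =>
    change (Bool.rec (force (img (ap g) m) (sr g P n)) true (P m) : Bool) = true at h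
    cases c : P m
    · rw [c, force_eq] at h
      obtain ⟨σ, s, d, e⟩ := ih _ h
      have f := smul_mem_CS s (ofMask_mem_CS a.2)
      rw [ofMask_xor, ← permOf_smul_ofMask (permCheck_of_isM24 a.1), smul_symmDiff, symmDiff_comm]
        at f
      rw [← permOf_smul_ofMask (permCheck_of_isM24 a.1), ← mul_smul] at e
      rw [← mul_smul σ (permOf g), show ofMask 15 = TT 0 from rfl] at f
      exact ⟨_, mul_mem s (permOf_mem_M24 a.1), symmDiff_mem_trans f d, e⟩
    · exact b m c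

/-- the octads through the two tetrads -/
def oL : Fin 2 → List ℕ :=
  ![[5279, 622863, 4196943, 3416079, 8536111], [5279, 4216883, 1413139, 2634003, 8524371]]

theorem oL_ok : ∀ i : Fin 2, ∀ o ∈ oL i, (isCode o = true ∧ pc o = 8) ∧
    Nat.land (tM i.castSucc) o = tM i.castSucc := by decide +kernel

theorem st_check : ∀ u < 4096, (∀ o ∈ oL 0, pc (Nat.land o (Nat.shiftLeft u 12)) % 2 = 0) →
    sr 0x755870aa2019490a3e42436f3b24cb (sr 0xa2254dc5658dd48566693c0d62887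
      (fun m => isCode (Nat.xor m 4115)) 12) 15 (Nat.shiftLeft u 12) = true ∨
    isCode (Nat.xor (Nat.shiftLeft u 12) 15) = true ∨
    ∃ i < 24, ∃ j < 24, isCode (Nat.xor (Nat.shiftLeft u 12) (Nat.lor (2 ^ i) (2 ^ j))) = true ∨
      u = 0 := by
  decide +kernel

theorem st (ht : t.card = 4) (n : t ∆ TT 0 ∉ CS) (h : ∀ o ∈ octads, TT 0 ⊆ o → 2 ∣ (o ∩ t).card) :
    St t := by
  obtain ⟨u, a, b⟩ := Rk.exists_hi t
  have c : ∀ {s : Finset Pt}, Rk.hi u ∆ s ∈ CS → t ∆ s ∈ CS := fun e =>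
    symmDiff_mem_trans (symmDiff_comm t _ ▸ b) e
  have d : ∀ {s : Finset Pt}, s.card ≤ 2 → Rk.hi u ∆ s ∉ CS := fun {s} e f => by
    have := (close_of_mem_CS (c f) (by rintro rfl; omega) ht.le (by omega)).2.1
    omega
  rcases st_check u a (fun o ho => by
    have k := oL_ok 0 o ho
    have m := M.oct_of_check k.1
    have := (even_inter_congr (mem_octads.1 m).1 b).1 (h _ m ((ofMask_subset_iff (by decide)).2 k.2))
    rw [Rk.hi, M.card_inter_ofMask (isCode_lt k.1.1)] at this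
    omega) with k | k | ⟨i, hi, j, hj, k | rfl⟩
  · obtain ⟨σ, s, e, f⟩ := sr_spec (by decide +kernel) (sr_spec (by decide +kernel) (fun m e =>
      ⟨1, one_mem _, by simpa using empty_mem_CS, by
        have := ofMask_mem_CS e
        rwa [ofMask_xor, ← one_smul (Equiv.Perm Pt) (ofMask m)] at this⟩) 12) 15 _ k
    exact ⟨σ, s, e, symmDiff_mem_trans (by
      rw [← smul_symmDiff, symmDiff_comm]; exact smul_mem_CS s b) f⟩
  · exact (n (c (ofMask_xor _ _ ▸ ofMask_mem_CS k))).elim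
  · refine (d ?_ (ofMask_xor _ _ ▸ ofMask_mem_CS k)).elim
    rw [ofMask_lor, ofMask_two_pow hi, ofMask_two_pow hj]
    exact Finset.card_union_le _ _
  · exact (d (s := ∅) (by simp) (by simpa [Rk.hi, ofMask_zero] using empty_mem_CS)).elim

end CF.Mx.M2
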